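import Cfsg.Agent.H538.TC.EEight
import Cfsg.Agent.H126.PwO.Fld
import Cfsg.Agent.H150.MF.Big

/-!
Fixed pairs in `SL_n(q)` from Theorem L (S2464).

* `exists_slc` : a matrix in `SL_n(F)` with a given characteristic polynomial;
* `fp_of_tl` : `FP n F` from Theorem L for `f`, `g`, of orders `s`, `t` prime to 6;
* `ex_of_order` : the exception of Theorem L does not occur if `t ∤ n s`; `ex_of_odd` : `f = g`, `n` odd.
-/

set_option autoImplicit false

namespace Cfsg.Agent.H538.TC.E8F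

open Matrix Polynomial
open Cfsg.Agent.H126.PwO (Pol exists_pol)

universe u

variable {F : Type u} [Field F]

theorem exists_mat {n : ℕ} {f : F[X]} (hf : f.Monic) (hd : f.natDegree = n) :
    ∃ M : Matrix (Fin n) (Fin n) F, M.charpoly = f := by
  subst hd
  have h0 := hf.ne_zero
  refine ⟨Matrix.reindex (finCongr (AdjoinRoot.powerBasis_dim h0)) (finCongr (AdjoinRoot.powerBasis_dim h0))
    (Algebra.leftMulMatrix (AdjoinRoot.powerBasis h0).basis (AdjoinRoot.powerBasis h0).gen), ?_⟩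
  rw [Matrix.charpoly_reindex, charpoly_leftMulMatrix, AdjoinRoot.powerBasis_gen, AdjoinRoot.minpoly_root h0,
    hf.leadingCoeff, inv_one, C_1, mul_one]

theorem det_of_charpoly {n : ℕ} {f : F[X]} (h0 : (-1) ^ n * f.coeff 0 = 1) {M : Matrix (Fin n) (Fin n) F}
    (h : M.charpoly = f) : M.det = 1 := by
  rw [Matrix.det_eq_sign_charpoly_coeff, Fintype.card_fin, h, h0]

theorem minpoly_eq {n : ℕ} {M : Matrix (Fin n) (Fin n) F} (hc : Irreducible M.charpoly) :
    minpoly F M = M.charpoly := by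
  have : Nonempty (Fin n) := by
    rcases Nat.eq_zero_or_pos n with h | h
    · subst h
      exact absurd hc (by rw [Matrix.charpoly, Matrix.det_isEmpty]; exact not_irreducible_one)
    · exact ⟨⟨0, h⟩⟩
  have hint : IsIntegral F M := Algebra.IsIntegral.isIntegral _
  obtain ⟨g, hg⟩ := Matrix.minpoly_dvd_charpoly M
  rcases hc.isUnit_or_isUnit hg with h | h
  · exact absurd h (minpoly.not_isUnit F _)
  · exact Polynomial.eq_of_monic_of_associated (minpoly.monic hint) (Matrix.charpoly_monic _) ⟨h.unit, hg.symm⟩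

theorem pow_eq_one_iff {n : ℕ} {M : Matrix (Fin n) (Fin n) F} (hc : Irreducible M.charpoly) (k : ℕ) :
    M ^ k = 1 ↔ M.charpoly ∣ X ^ k - 1 := by
  rw [← minpoly_eq hc, minpoly.dvd_iff, map_sub, map_pow, aeval_X, map_one, sub_eq_zero]

theorem exists_slc {n s : ℕ} {f : F[X]} (hf : Pol F n s f) (h0 : (-1) ^ n * f.coeff 0 = 1) :
    ∃ c : Matrix.SpecialLinearGroup (Fin n) F, (c : Matrix (Fin n) (Fin n) F).charpoly = f ∧ orderOf c = s := by
  obtain ⟨M, hM⟩ := exists_mat hf.monic hf.deg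
  obtain ⟨c, hcM⟩ : ∃ c : Matrix.SpecialLinearGroup (Fin n) F, (c : Matrix (Fin n) (Fin n) F) = M :=
    ⟨⟨M, det_of_charpoly h0 hM⟩, rfl⟩
  refine ⟨c, by rw [hcM, hM], ?_⟩
  have hirr : Irreducible (c : Matrix (Fin n) (Fin n) F).charpoly := by rw [hcM, hM]; exact hf.irr
  have key : ∀ k, c ^ k = 1 ↔ s ∣ k := by
    intro k
    rw [← hf.dvd k]
    have h1 := pow_eq_one_iff hirr k
    rw [hcM, hM, ← hcM] at h1
    rw [← h1]
    constructor
    · intro h
      have := congrArg Subtype.val h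
      rwa [Matrix.SpecialLinearGroup.coe_pow] at this
    · intro h
      apply Subtype.ext
      rw [Matrix.SpecialLinearGroup.coe_pow]
      exact h
  apply Nat.dvd_antisymm
  · exact orderOf_dvd_of_pow_eq_one ((key s).2 dvd_rfl)
  · exact (key _).1 (pow_orderOf_eq_one _)

/-- Theorem L for `f`, `g`, determinant 1 -/
def TLfg (n : ℕ) (F : Type u) [Field F] (f g : F[X]) : Prop :=
  ∀ A : Matrix (Fin n) (Fin n) F, A.det = 1 → (∀ c : F, A ≠ c • (1 : Matrix (Fin n) (Fin n) F)) →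
    ∃ X Y : Matrix (Fin n) (Fin n) F, X * Y = A ∧ X.charpoly = f ∧ Y.charpoly = g

theorem tlc_of [Finite F] {n : ℕ} {f g : F[X]} (hf : Irreducible f) (hg : Irreducible g)
    (f0 : (-1) ^ n * f.coeff 0 = 1) (g0 : (-1) ^ n * g.coeff 0 = 1) (h : TLfg n F f g)
    {c d : Matrix.SpecialLinearGroup (Fin n) F} (hc : (c : Matrix (Fin n) (Fin n) F).charpoly = f)
    (hd : (d : Matrix (Fin n) (Fin n) F).charpoly = g) : TLC n F c d := by
  intro A hA
  obtain ⟨X', Y', e, hX, hY⟩ := h A.1 A.2 hA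
  have h1 : Cfsg.Agent.H150.MF.Cls (c : Matrix (Fin n) (Fin n) F) :=
    Cfsg.Agent.H150.MF.cls_of_irreducible (by rw [hc]; exact hf)
  have h2 : Cfsg.Agent.H150.MF.Cls (d : Matrix (Fin n) (Fin n) F) :=
    Cfsg.Agent.H150.MF.cls_of_irreducible (by rw [hd]; exact hg)
  obtain ⟨a, ha⟩ := Cfsg.Agent.H150.MF.exists_conj (c := c) (d := ⟨X', det_of_charpoly f0 hX⟩) h1
    (Cfsg.Agent.H150.MF.cls_of_irreducible (by show Irreducible X'.charpoly; rw [hX]; exact hf))
    (by show _ = X'.charpoly; rw [hc, hX])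
  obtain ⟨b, hb⟩ := Cfsg.Agent.H150.MF.exists_conj (c := d) (d := ⟨Y', det_of_charpoly g0 hY⟩) h2
    (Cfsg.Agent.H150.MF.cls_of_irreducible (by show Irreducible Y'.charpoly; rw [hY]; exact hg))
    (by show _ = Y'.charpoly; rw [hd, hY])
  refine ⟨a, b, ?_⟩
  rw [← ha, ← hb]
  exact Subtype.ext e.symm

theorem fp_of_tl [Finite F] {n s t : ℕ} {f g : F[X]} (hf : Pol F n s f) (hg : Pol F n t g)
    (f0 : (-1) ^ n * f.coeff 0 = 1) (g0 : (-1) ^ n * g.coeff 0 = 1) (hs : s.Coprime 6) (ht : t.Coprime 6)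
    (h : TLfg n F f g) : FP n F := by
  obtain ⟨c, hc, oc⟩ := exists_slc hf f0
  obtain ⟨d, hd, od⟩ := exists_slc hg g0
  exact ⟨c, d, by rw [hc]; exact hf.irr, by rw [hd]; exact hg.irr, by rw [oc]; exact hs, by rw [od]; exact ht,
    tlc_of hf.irr hg.irr f0 g0 h hc hd⟩

/-! ### The exception -/

theorem inv_mul_self {n : ℕ} {M : Matrix (Fin n) (Fin n) F} (hd : M.det = 1) : M⁻¹ * M = 1 ∧ M * M⁻¹ = 1 :=
  ⟨Matrix.nonsing_inv_mul _ (by rw [hd]; exact isUnit_one), Matrix.mul_nonsing_inv _ (by rw [hd]; exact isUnit_one)⟩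

theorem det_inv_one {n : ℕ} {M : Matrix (Fin n) (Fin n) F} (hd : M.det = 1) : (M⁻¹).det = 1 := by
  have h := congrArg Matrix.det (inv_mul_self hd).1
  rwa [Matrix.det_mul, hd, mul_one, Matrix.det_one] at h

theorem c_pow {n : ℕ} {f g : F[X]} (f0 : (-1) ^ n * f.coeff 0 = 1) (g0 : (-1) ^ n * g.coeff 0 = 1)
    {M : Matrix (Fin n) (Fin n) F} {c : F} (hM : M.charpoly = f) (h : (c • M⁻¹).charpoly = g) : c ^ n = 1 := by
  have h1 := det_of_charpoly g0 h
  rwa [Matrix.det_smul, Fintype.card_fin, det_inv_one (det_of_charpoly f0 hM), mul_one] at h1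

theorem ex_of_order {n s t : ℕ} {f g : F[X]} (hf : Pol F n s f) (hg : Pol F n t g)
    (f0 : (-1) ^ n * f.coeff 0 = 1) (g0 : (-1) ^ n * g.coeff 0 = 1) (hst : ¬ t ∣ n * s)
    (M : Matrix (Fin n) (Fin n) F) (c : F) (hM : M.charpoly = f) : (c • M⁻¹).charpoly ≠ g := by
  intro h
  apply hst
  have hd := det_of_charpoly f0 hM
  have hc := c_pow f0 g0 hM h
  have h1 : M ^ s = 1 := by
    rw [pow_eq_one_iff (by rw [hM]; exact hf.irr), hM]
    exact (hf.dvd s).2 dvd_rfl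
  have h2 : (M⁻¹) ^ s = 1 := by
    rw [Matrix.inv_pow', h1]
    simp
  have h3 : (c • M⁻¹) ^ (n * s) = 1 := by
    rw [_root_.smul_pow, pow_mul c, hc, one_pow, one_smul, mul_comm, pow_mul, h2, one_pow]
  rw [← hg.dvd, ← h]
  exact (pow_eq_one_iff (by rw [h]; exact hg.irr) _).1 h3

theorem eval_one {n : ℕ} (M : Matrix (Fin n) (Fin n) F) : M.charpoly.eval 1 = (1 - M).det := by
  rw [Matrix.eval_charpoly, map_one]

theorem ex_of_odd [Finite F] {n : ℕ} (hn : Odd n) (h2 : (2 : F) ≠ 0) (hcop : n.Coprime (Nat.card F - 1)) {f : F[X]}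
    (hf : ∀ x, f.eval x ≠ 0) (f0 : (-1) ^ n * f.coeff 0 = 1)
    (M : Matrix (Fin n) (Fin n) F) (c : F) (hM : M.charpoly = f) : (c • M⁻¹).charpoly ≠ f := by
  intro h
  have : Fintype F := Fintype.ofFinite F
  have hd := det_of_charpoly f0 hM
  have hc := c_pow f0 f0 hM h
  have hn0 : n ≠ 0 := by
    rintro rfl
    exact (Nat.not_odd_zero hn).elim
  have hc0 : c ≠ 0 := by
    rintro rfl
    rw [zero_pow hn0] at hc
    exact zero_ne_one hc
  have hc1 : c = 1 := by
    have h3 : c ^ (Nat.card F - 1) = 1 := by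
      rw [Nat.card_eq_fintype_card]
      exact FiniteField.pow_card_sub_one_eq_one c hc0
    have h4 := Nat.dvd_gcd (orderOf_dvd_of_pow_eq_one hc) (orderOf_dvd_of_pow_eq_one h3)
    rw [hcop] at h4
    exact orderOf_eq_one_iff.1 (Nat.dvd_one.1 h4)
  rw [hc1, one_smul] at h
  have e1 := eval_one M
  have e2 := eval_one M⁻¹
  rw [hM] at e1
  rw [h] at e2
  have e3 : (1 : Matrix (Fin n) (Fin n) F) - M⁻¹ = -(M⁻¹ * (1 - M)) := by
    rw [mul_sub, mul_one, (inv_mul_self hd).1, neg_sub]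
  rw [e3, Matrix.det_neg, Fintype.card_fin, hn.neg_one_pow, Matrix.det_mul, det_inv_one hd, one_mul, ← e1] at e2
  apply hf 1
  have e4 : 2 * f.eval 1 = 0 := by linear_combination e2
  exact (mul_eq_zero.1 e4).resolve_left h2

end Cfsg.Agent.H538.TC.E8F
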