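import Cfsg.Agent.H538.TC.FixedPair

/-!
Fixed pairs in `SL₅(q)`, `SL₄(q)`, `q = 4, 5, 7, 17`, from Theorem L (S2464).
-/

set_option autoImplicit false

namespace Cfsg.Agent.H538.TC.E8F

open Matrix Polynomial
open Cfsg.Agent.H126.PwO (Pol exists_pol)

universe u

variable {F : Type u} [Field F]

/-- Theorem L (= `Cfsg.Agent.H781.TC6.TL`) -/
def TLn (F : Type u) [Field F] (n : ℕ) : Prop :=
  ∀ (f g : F[X]), f.Monic → g.Monic → f.natDegree = n → g.natDegree = n → Irreducible f → Irreducible g →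
    (∀ (X : Matrix (Fin n) (Fin n) F) (c : F), X.charpoly = f → (c • X⁻¹).charpoly ≠ g) →
    ∀ A : Matrix (Fin n) (Fin n) F, A.det = f.coeff 0 * g.coeff 0 → A.det ≠ 0 →
      (∀ c : F, A ≠ c • (1 : Matrix (Fin n) (Fin n) F)) →
      ∃ X Y : Matrix (Fin n) (Fin n) F, X * Y = A ∧ X.charpoly = f ∧ Y.charpoly = g

theorem TLn.fg {n s t : ℕ} {f g : F[X]} (h : TLn F n) (hf : Pol F n s f) (hg : Pol F n t g)
    (f0 : (-1) ^ n * f.coeff 0 = 1) (g0 : (-1) ^ n * g.coeff 0 = 1)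
    (hex : ∀ (X : Matrix (Fin n) (Fin n) F) (c : F), X.charpoly = f → (c • X⁻¹).charpoly ≠ g) : TLfg n F f g := by
  intro A hA hns
  have h1 : ((-1 : F) ^ n) * (-1) ^ n = 1 := by rw [← mul_pow]; simp
  refine h f g hf.monic hg.monic hf.deg hg.deg hf.irr hg.irr hex A ?_ (by rw [hA]; exact one_ne_zero) hns
  rw [hA]
  calc (1 : F) = ((-1) ^ n * f.coeff 0) * ((-1) ^ n * g.coeff 0) := by rw [f0, g0, one_mul]
    _ = (((-1 : F) ^ n) * (-1) ^ n) * (f.coeff 0 * g.coeff 0) := by ring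
    _ = f.coeff 0 * g.coeff 0 := by rw [h1, one_mul]

theorem exists_pol1 [Finite F] {n s q : ℕ} (hq : Nat.card F = q) (hn : 1 ≤ n) (hs : s ∣ q ^ n - 1)
    (hmin : ∀ k, 0 < k → k < n → ¬ s ∣ q ^ k - 1) (h1 : s ∣ (q ^ n - 1) / (q - 1)) :
    ∃ f : F[X], Pol F n s f ∧ (-1) ^ n * f.coeff 0 = 1 := by
  subst hq
  obtain ⟨f, hf⟩ := exists_pol F hn hs hmin
  refine ⟨f, hf, ?_⟩
  have := (hf.coef 1).2 (by rw [mul_one]; exact h1)
  rwa [pow_one] at this

theorem fp_two [Finite F] {n s t q : ℕ} (hq : Nat.card F = q) (hn : 1 ≤ n) (h : TLn F n)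
    (hs : s ∣ q ^ n - 1) (hmin : ∀ k, 0 < k → k < n → ¬ s ∣ q ^ k - 1) (h1 : s ∣ (q ^ n - 1) / (q - 1))
    (ht : t ∣ q ^ n - 1) (hmin' : ∀ k, 0 < k → k < n → ¬ t ∣ q ^ k - 1) (h1' : t ∣ (q ^ n - 1) / (q - 1))
    (hs6 : s.Coprime 6) (ht6 : t.Coprime 6) (hst : ¬ t ∣ n * s) : FP n F := by
  obtain ⟨f, hf, f0⟩ := exists_pol1 hq hn hs hmin h1
  obtain ⟨g, hg, g0⟩ := exists_pol1 hq hn ht hmin' h1'
  exact fp_of_tl hf hg f0 g0 hs6 ht6 (h.fg hf hg f0 g0 (ex_of_order hf hg f0 g0 hst))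

theorem eval_ne [Finite F] {n s : ℕ} (hn : 2 ≤ n) {f : F[X]} (hf : Pol F n s f) (x : F) : f.eval x ≠ 0 := by
  intro h
  have h1 := Polynomial.degree_eq_one_of_irreducible_of_root hf.irr h
  have h2 : f.natDegree = 1 := natDegree_eq_of_degree_eq_some h1
  rw [hf.deg] at h2
  omega

theorem fp_one [Finite F] {n s q : ℕ} (hq : Nat.card F = q) (hn : 2 ≤ n) (hodd : Odd n) (h2 : (2 : F) ≠ 0)
    (hcop : n.Coprime (q - 1)) (h : TLn F n)
    (hs : s ∣ q ^ n - 1) (hmin : ∀ k, 0 < k → k < n → ¬ s ∣ q ^ k - 1) (h1 : s ∣ (q ^ n - 1) / (q - 1))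
    (hs6 : s.Coprime 6) : FP n F := by
  obtain ⟨f, hf, f0⟩ := exists_pol1 hq (by omega) hs hmin h1
  exact fp_of_tl hf hf f0 f0 hs6 hs6 (h.fg hf hf f0 f0 (ex_of_odd hodd h2 (by rw [hq]; exact hcop) (eval_ne hn hf) f0))

theorem two_ne {q : ℕ} [Finite F] (hq : Nat.card F = q) (hodd : Odd q) : (2 : F) ≠ 0 := by
  intro h
  have : Fintype F := Fintype.ofFinite F
  have h1 := Nat.cast_card_eq_zero F
  rw [← Nat.card_eq_fintype_card, hq] at h1
  obtain ⟨k, rfl⟩ := hodd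
  push_cast at h1
  rw [h, zero_mul, zero_add] at h1
  exact one_ne_zero h1

/-- **`SL₅(q)`.** -/
theorem fp_five [Finite F] (hq : Nat.card F = 4 ∨ Nat.card F = 5 ∨ Nat.card F = 7 ∨ Nat.card F = 17)
    (h : TLn F 5) : FP 5 F := by
  rcases hq with hq | hq | hq | hq
  · refine fp_two (s := 11) (t := 31) hq (by norm_num) h (by norm_num) ?_ (by norm_num) (by norm_num) ?_ (by norm_num)
      (by norm_num) (by norm_num) (by norm_num)
    all_goals
      intro k h0 h5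
      interval_cases k <;> norm_num
  · refine fp_two (s := 11) (t := 71) hq (by norm_num) h (by norm_num) ?_ (by norm_num) (by norm_num) ?_ (by norm_num)
      (by norm_num) (by norm_num) (by norm_num)
    all_goals
      intro k h0 h5
      interval_cases k <;> norm_num
  · refine fp_one (s := 2801) hq (by norm_num) (by decide) (two_ne hq (by decide)) (by norm_num) h (by norm_num) ?_
      (by norm_num) (by norm_num)
    intro k h0 h5
    interval_cases k <;> norm_num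
  · refine fp_one (s := 88741) hq (by norm_num) (by decide) (two_ne hq (by decide)) (by norm_num) h (by norm_num) ?_
      (by norm_num) (by norm_num)
    intro k h0 h5
    interval_cases k <;> norm_num

/-! ### `SL₄(5)` -/

theorem irr_of_order [Finite F] {n s : ℕ} {f : F[X]} (hfm : f.Monic) (hfd : f.natDegree = n) (hn : 0 < n)
    (hdvd : f ∣ X ^ s - 1) (hs : s.Prime) (h1 : f.eval 1 ≠ 0)
    (hmin : ∀ k, 0 < k → k < n → ¬ s ∣ Nat.card F ^ k - 1) : Irreducible f := by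
  obtain ⟨g, hg, hgf⟩ := Polynomial.exists_irreducible_of_natDegree_pos (f := f) (by omega)
  have : Fact (Irreducible g) := ⟨hg⟩
  have : Fact s.Prime := ⟨hs⟩
  have hz : (AdjoinRoot.root g) ^ s = 1 := by
    obtain ⟨k, hk⟩ := hgf.trans hdvd
    have h2 := congrArg (fun p => aeval (AdjoinRoot.root g) p) hk
    simp only [map_sub, map_pow, aeval_X, map_one, map_mul] at h2
    rw [show aeval (AdjoinRoot.root g) g = 0 from AdjoinRoot.aeval_eq g ▸ AdjoinRoot.mk_self, zero_mul] at h2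
    exact sub_eq_zero.1 h2
  have hz1 : AdjoinRoot.root g ≠ 1 := by
    intro h
    have h2 : aeval (AdjoinRoot.root g) g = 0 := AdjoinRoot.aeval_eq g ▸ AdjoinRoot.mk_self
    rw [h, show (1 : AdjoinRoot g) = algebraMap F (AdjoinRoot g) 1 from (map_one _).symm,
      aeval_algebraMap_apply, coe_aeval_eq_eval, map_eq_zero_iff _ (algebraMap F (AdjoinRoot g)).injective] at h2
    obtain ⟨k, hk⟩ := hgf
    exact h1 (by rw [hk, eval_mul, h2, zero_mul])
  have ho : orderOf (AdjoinRoot.root g) = s := orderOf_eq_prime hz hz1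
  have hz0 : AdjoinRoot.root g ≠ 0 := by
    intro h
    rw [h, zero_pow hs.ne_zero] at hz
    exact zero_ne_one hz
  have hfin : Module.Finite F (AdjoinRoot g) := (AdjoinRoot.powerBasis hg.ne_zero).finite
  have hfin' : Finite (AdjoinRoot g) := Module.finite_of_finite F
  have hcard : Nat.card (AdjoinRoot g) = Nat.card F ^ g.natDegree := by
    rw [Module.natCard_eq_pow_finrank (K := F), (AdjoinRoot.powerBasis hg.ne_zero).finrank, AdjoinRoot.powerBasis_dim]
  have hd : s ∣ Nat.card F ^ g.natDegree - 1 := by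
    rw [← ho, ← hcard]
    have : Fintype (AdjoinRoot g) := Fintype.ofFinite _
    rw [Nat.card_eq_fintype_card]
    exact orderOf_dvd_of_pow_eq_one (FiniteField.pow_card_sub_one_eq_one _ hz0)
  have hle : n ≤ g.natDegree := by
    by_contra hlt
    exact hmin _ hg.natDegree_pos (by omega) hd
  obtain ⟨k, hk⟩ := hgf
  have hk0 : k ≠ 0 := by
    rintro rfl
    rw [mul_zero] at hk
    exact hfm.ne_zero hk
  have h3 : f.natDegree = g.natDegree + k.natDegree := by
    rw [hk, natDegree_mul hg.ne_zero hk0]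
  have h4 : k.natDegree = 0 := by omega
  have hku : IsUnit k := by
    rw [eq_C_of_natDegree_eq_zero h4]
    refine isUnit_C.2 (isUnit_iff_ne_zero.2 fun h => hk0 ?_)
    rw [eq_C_of_natDegree_eq_zero h4, h, C_0]
  rw [hk]
  exact (irreducible_mul_isUnit hku).2 hg

theorem exists_slc' {n s : ℕ} {f : F[X]} (hfm : f.Monic) (hfd : f.natDegree = n) (hirr : Irreducible f)
    (hdvd : f ∣ X ^ s - 1) (h0 : (-1) ^ n * f.coeff 0 = 1) :
    ∃ c : Matrix.SpecialLinearGroup (Fin n) F, (c : Matrix (Fin n) (Fin n) F).charpoly = f ∧ c ^ s = 1 := by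
  obtain ⟨M, hM⟩ := exists_mat hfm hfd
  obtain ⟨c, hcM⟩ : ∃ c : Matrix.SpecialLinearGroup (Fin n) F, (c : Matrix (Fin n) (Fin n) F) = M :=
    ⟨⟨M, det_of_charpoly h0 hM⟩, rfl⟩
  refine ⟨c, by rw [hcM, hM], ?_⟩
  apply Subtype.ext
  rw [Matrix.SpecialLinearGroup.coe_pow]
  exact (pow_eq_one_iff (by rw [hcM, hM]; exact hirr) s).2 (by rw [hcM, hM]; exact hdvd)

/-- the two polynomials over `𝔽₅` -/
noncomputable def f1 (F : Type u) [Field F] : F[X] := X ^ 4 + X ^ 3 - X ^ 2 + X + 1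
/-- the two polynomials over `𝔽₅` -/
noncomputable def f2 (F : Type u) [Field F] : F[X] := X ^ 4 + C 2 * X ^ 3 + X ^ 2 + C 2 * X + 1

theorem mon4 {h : F[X]} (hd : h.degree < 4) : (X ^ 4 + h).Monic ∧ (X ^ 4 + h).natDegree = 4 := by
  constructor
  · exact monic_X_pow_add (by exact_mod_cast hd)
  · exact natDegree_eq_of_degree_eq_some (by
      rw [degree_add_eq_left_of_degree_lt (by rw [degree_X_pow]; exact_mod_cast hd), degree_X_pow])

theorem f1_spec : (f1 F).Monic ∧ (f1 F).natDegree = 4 ∧ (f1 F).coeff 0 = 1 ∧ (f1 F).eval 1 = 3 := by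
  have e : f1 F = X ^ 4 + (X ^ 3 - X ^ 2 + X + 1) := by rw [f1]; ring
  have hd : (X ^ 3 - X ^ 2 + X + 1 : F[X]).degree < 4 := by
    refine lt_of_le_of_lt (b := ((3 : ℕ) : WithBot ℕ)) ?_ (by norm_num)
    rw [← natDegree_le_iff_degree_le]
    compute_degree
  refine ⟨e ▸ (mon4 hd).1, e ▸ (mon4 hd).2, ?_, ?_⟩
  · rw [coeff_zero_eq_eval_zero]; simp [f1]
  · simp [f1]; norm_num

theorem f2_spec : (f2 F).Monic ∧ (f2 F).natDegree = 4 ∧ (f2 F).coeff 0 = 1 ∧ (f2 F).eval 1 = 7 := by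
  have e : f2 F = X ^ 4 + (C 2 * X ^ 3 + X ^ 2 + C 2 * X + 1) := by rw [f2]; ring
  have hd : (C 2 * X ^ 3 + X ^ 2 + C 2 * X + 1 : F[X]).degree < 4 := by
    refine lt_of_le_of_lt (b := ((3 : ℕ) : WithBot ℕ)) ?_ (by norm_num)
    rw [← natDegree_le_iff_degree_le]
    compute_degree
  refine ⟨e ▸ (mon4 hd).1, e ▸ (mon4 hd).2, ?_, ?_⟩
  · rw [coeff_zero_eq_eval_zero]; simp [f2]
  · simp [f2]; norm_num

theorem fp_four_five [Finite F] (hq : Nat.card F = 5) (h : TLn F 4) : FP 4 F := by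
  have : Fintype F := Fintype.ofFinite F
  have h5 : (5 : F) = 0 := by
    have h1 := Nat.cast_card_eq_zero F
    rw [← Nat.card_eq_fintype_card, hq] at h1
    exact_mod_cast h1
  have h5' : (5 : F[X]) = 0 := by
    have : (5 : F[X]) = C 5 := (map_ofNat C 5).symm
    rw [this, h5, C_0]
  have hC2 : (C 2 : F[X]) = 2 := map_ofNat C 2
  have n1 : (1 : F) ≠ 0 := one_ne_zero
  have n3 : (3 : F) ≠ 0 := fun h => n1 (by linear_combination 2 * h - h5)
  have n7 : (7 : F) ≠ 0 := fun h => n1 (by linear_combination 3 * h - 4 * h5)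
  obtain ⟨m1, d1, c1, e1⟩ := f1_spec (F := F)
  obtain ⟨m2, d2, c2, e2⟩ := f2_spec (F := F)
  have key : (X ^ 13 - 1 : F[X]) = (X - 1) * f1 F * f2 F * (X ^ 4 - 2 * X ^ 3 - 2 * X + 1) := by
    rw [f1, f2, hC2]
    linear_combination (-(X ^ 2 + X ^ 5 - X ^ 6 + X ^ 7 - X ^ 8 - X ^ 11)) * h5'
  have v1 : f1 F ∣ X ^ 13 - 1 := ⟨(X - 1) * f2 F * (X ^ 4 - 2 * X ^ 3 - 2 * X + 1), by rw [key]; ring⟩
  have v2 : f2 F ∣ X ^ 13 - 1 := ⟨(X - 1) * f1 F * (X ^ 4 - 2 * X ^ 3 - 2 * X + 1), by rw [key]; ring⟩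
  have hmin : ∀ k, 0 < k → k < 4 → ¬ 13 ∣ Nat.card F ^ k - 1 := by
    intro k h0 h4
    rw [hq]
    interval_cases k <;> norm_num
  have i1 : Irreducible (f1 F) := irr_of_order m1 d1 (by norm_num) v1 (by norm_num) (by rw [e1]; exact n3) hmin
  have i2 : Irreducible (f2 F) := irr_of_order m2 d2 (by norm_num) v2 (by norm_num) (by rw [e2]; exact n7) hmin
  have z1 : ((-1 : F) ^ 4) * (f1 F).coeff 0 = 1 := by rw [c1]; norm_num
  have z2 : ((-1 : F) ^ 4) * (f2 F).coeff 0 = 1 := by rw [c2]; norm_num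
  have hex : ∀ (M : Matrix (Fin 4) (Fin 4) F) (c : F), M.charpoly = f1 F → (c • M⁻¹).charpoly ≠ f2 F := by
    intro M c hM hc
    have hd := det_of_charpoly z1 hM
    have hc4 := c_pow z1 z2 hM hc
    have h13 : M ^ 13 = 1 := (pow_eq_one_iff (by rw [hM]; exact i1) 13).2 (by rw [hM]; exact v1)
    have h13' : (c • M⁻¹) ^ 13 = 1 := (pow_eq_one_iff (by rw [hc]; exact i2) 13).2 (by rw [hc]; exact v2)
    have hMi : (M⁻¹) ^ 13 = 1 := by
      rw [Matrix.inv_pow', h13]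
      simp
    rw [_root_.smul_pow, hMi] at h13'
    have hcc : c ^ 13 = 1 := by
      have := congrFun (congrFun h13' 0) 0
      simpa using this
    have hc1 : c = 1 := by
      calc c = c ^ 13 := by
            rw [show (13 : ℕ) = 4 * 3 + 1 from rfl, pow_succ, pow_mul, hc4, one_pow, one_mul]
        _ = 1 := hcc
    rw [hc1, one_smul] at hc
    have e3 := eval_one M
    have e4 := eval_one M⁻¹
    rw [hM, e1] at e3
    rw [hc, e2] at e4
    have e5 : (1 : Matrix (Fin 4) (Fin 4) F) - M⁻¹ = -(M⁻¹ * (1 - M)) := by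
      rw [mul_sub, mul_one, (inv_mul_self hd).1, neg_sub]
    rw [e5, Matrix.det_neg, Fintype.card_fin, Matrix.det_mul, det_inv_one hd, one_mul, ← e3] at e4
    exact n1 (by linear_combination h5 - e4)
  obtain ⟨c, hc, oc⟩ := exists_slc' m1 d1 i1 v1 z1
  obtain ⟨d, hd, od⟩ := exists_slc' m2 d2 i2 v2 z2
  refine ⟨c, d, by rw [hc]; exact i1, by rw [hd]; exact i2,
    Nat.Coprime.coprime_dvd_left (orderOf_dvd_of_pow_eq_one oc) (by norm_num),
    Nat.Coprime.coprime_dvd_left (orderOf_dvd_of_pow_eq_one od) (by norm_num), tlc_of i1 i2 z1 z2 ?_ hc hd⟩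
  intro A hA hns
  exact h _ _ m1 m2 d1 d2 i1 i2 hex A (by rw [hA, c1, c2, one_mul]) (by rw [hA]; exact one_ne_zero) hns

/-- **`SL₄(q)`.** -/
theorem fp_four [Finite F] (hq : Nat.card F = 4 ∨ Nat.card F = 5 ∨ Nat.card F = 7 ∨ Nat.card F = 17)
    (h : TLn F 4) : FP 4 F := by
  rcases hq with hq | hq | hq | hq
  · refine fp_two (s := 17) (t := 85) hq (by norm_num) h (by norm_num) ?_ (by norm_num) (by norm_num) ?_ (by norm_num)
      (by norm_num) (by norm_num) (by norm_num)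
    all_goals
      intro k h0 h5
      interval_cases k <;> norm_num
  · exact fp_four_five hq h
  · refine fp_two (s := 5) (t := 25) hq (by norm_num) h (by norm_num) ?_ (by norm_num) (by norm_num) ?_ (by norm_num)
      (by norm_num) (by norm_num) (by norm_num)
    all_goals
      intro k h0 h5
      interval_cases k <;> norm_num
  · refine fp_two (s := 5) (t := 29) hq (by norm_num) h (by norm_num) ?_ (by norm_num) (by norm_num) ?_ (by norm_num)
      (by norm_num) (by norm_num) (by norm_num)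
    all_goals
      intro k h0 h5
      interval_cases k <;> norm_num

open Cfsg.Lie in
/-- **`E₈(q)`, `q = 4, 5, 7, 17`, from Theorem L.** -/
theorem t6_of_TL [Finite F] (hq : Nat.card F = 4 ∨ Nat.card F = 5 ∨ Nat.card F = 7 ∨ Nat.card F = 17)
    (h5 : TLn F 5) (h4 : TLn F 4) : Cfsg.Agent.H777.T6.T6 ↥(chevE8.group F) :=
  t6_of_card hq (fp_five hq h5) (fp_four hq h4)

end Cfsg.Agent.H538.TC.E8F
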